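import Cfsg.Agent.Comp.Y555.A.Up
import Cfsg.Agent.Comp.Y555.A.Nets

set_option autoImplicit false
set_option maxRecDepth 100000

namespace Cfsg.Agent.Comp.Y555.A
open Cfsg.Agent.Comp

theorem der.{u} : Derives.{u} R D := by
  obtain ⟨phi, rep⟩ := pres.rep ok sat
  exact derives_of_pres hR (by decide +kernel) (rep.sat_of_inj (rep.card_eq up low).2.2 (by decide +kernel) satD)

end Cfsg.Agent.Comp.Y555.A
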